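import Cfsg.Agent.Lib.ChevOrtho.B2Gen
import Cfsg.Agent.Lib.ChevOrtho.Iso
import Cfsg.Agent.Lib.SteinbergPres.PerfectData
import Cfsg.Agent.Lib.Chevalley.SimpleData

/-!
B₂(F) ≅ PΩ₅(F) over every field with more than two elements.
-/

set_option autoImplicit false
set_option linter.unusedSimpArgs false

namespace CfsgLib.ChevOrtho.B2

open Cfsg.Lie CfsgLib.ClassicalForms CfsgLib.SteinbergPres QuadraticMap

theorem covers : ∀ (s : Hy) (j : Ix), j = .inr s ∨ j = .inr s.swap ∨
    ∃ r < 8, (fst r = s ∧ snd r = j) ∨ (Sum.inr (fst r) = j ∧ snd r = Sum.inr s) := by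
  decide +kernel

variable {F : Type*} [Field F]

theorem gen_le : commutator (orth (qOdd 2 F)) ≤
    Subgroup.closure {g | ∃ r < chevB2.nroots, ∃ t, g = X (F := F) r t} := by
  set E := Subgroup.closure {g | ∃ r < chevB2.nroots, ∃ t, g = X (F := F) r t}
  have hXE : ∀ r < 8, ∀ t, X (F := F) r t ∈ E := fun r hr t => Subgroup.subset_closure ⟨r, hr, t, rfl⟩
  have hsgn : ∀ r < 8, ((sgn r : ℤ) : F) * (sgn r : F) = 1 := fun r hr => by
    exact_mod_cast congrArg (fun x : ℤ => (x : F)) (sgn_sq r hr)
  have hstep : ∀ (s : Hy) (j : Ix) (c : F) (hw : polar (qOdd 2 F) (bas s) (c • Pi.single j 1) = 0),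
      siegel (qOdd 2 F) (bas s) (c • Pi.single j 1) (q_bas s) hw ∈ E := by
    intro s j c hw
    rcases covers s j with rfl | rfl | ⟨r, hr, hst⟩
    · have e := siegel_add_smul (Q := qOdd 2 F) (u := bas s) (w := 0) (q_bas s) (by simp) c
      rw [siegel_congr rfl (zero_add _), siegel_zero] at e
      exact (show siegel (qOdd 2 F) (bas s) (c • bas s) (q_bas s) hw ∈ E by rw [e]; exact one_mem _)
    · rw [polar_smul_right, polar_bas5, Pi.single_eq_same, smul_eq_mul, mul_one] at hw
      rw [siegel_congr rfl (show c • Pi.single (Sum.inr s.swap) (1 : F) = (0 : Ix → F) by rw [hw, zero_smul]),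
        siegel_zero]
      exact one_mem _
    rcases hst with ⟨rfl, rfl⟩ | ⟨rfl, hst⟩
    · have := hXE r hr ((sgn r : F) * c)
      rw [X, dif_pos hr] at this
      convert this using 2
      rw [← mul_assoc, hsgn r hr, one_mul]
    · change siegel (qOdd 2 F) (bas s) (c • bas (fst r)) (q_bas s) hw ∈ E
      have hs : (Pi.single (snd r) 1 : Ix → F) = bas s := by rw [hst, bas]
      have hw' : polar (qOdd 2 F) (bas (fst r)) (-bas s) = 0 := by
        rw [← hs, ← neg_one_smul F]; exact polar_snd hr _
      have e1 := siegel_swap (Q := qOdd 2 F) (u := bas s) (w := c • bas (fst r)) (q_bas _) hw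
        (by simp [QuadraticMap.map_smul, q_bas])
      have e2 := siegel_smul (Q := qOdd 2 F) (u := bas (fst r)) (w := -bas s) (q_bas _) hw' c
      rw [← e1, e2]
      have := hXE r hr ((sgn r : F) * -c)
      rw [X, dif_pos hr] at this
      convert this using 2
      rw [← mul_assoc, hsgn r hr, one_mul, hs, smul_neg, neg_smul]
  have hE : ∀ s w (hw : polar (qOdd 2 F) (bas s) w = 0), siegel (qOdd 2 F) (bas s) w (q_bas s) hw ∈ E := by
    intro s w hw
    classical
    have hz : ∀ j, polar (qOdd 2 F) (bas s) (w j • Pi.single j 1) = 0 := by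
      intro j
      rw [polar_smul_right, polar_bas5, Pi.single_apply]
      split_ifs with e
      · rw [polar_bas5, e] at hw; simp [hw]
      · simp
    have hsum : ∀ T : Finset Ix, ∀ h,
        siegel (qOdd 2 F) (bas s) (∑ j ∈ T, w j • Pi.single j 1) (q_bas s) h ∈ E := by
      intro T
      induction T using Finset.induction_on with
      | empty =>
        intro h
        rw [siegel_congr rfl (Finset.sum_empty), siegel_zero]
        exact one_mem _
      | insert j T hj ih =>
        intro h
        have hT : polar (qOdd 2 F) (bas s) (∑ j ∈ T, w j • Pi.single j 1) = 0 := by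
          rw [← QuadraticMap.polarBilin_apply_apply, map_sum]
          exact Finset.sum_eq_zero fun t _ => hz t
        rw [siegel_congr rfl (Finset.sum_insert hj), ← siegel_mul (q_bas s) (hz j) hT]
        exact mul_mem (hstep _ _ _ _) (ih hT)
    have e : (∑ j : Ix, w j • (Pi.single j 1 : Ix → F)) = w := (pi_eq_sum_univ' w).symm
    have h' : polar (qOdd 2 F) (bas s) (∑ j : Ix, w j • Pi.single j 1) = 0 := by rwa [e]
    have := hsum Finset.univ h'
    rwa [siegel_congr rfl e] at this
  refine (frame F).commutator_le hE ?_ (fun u hu h => exists_polar_ne hu h) ?_ ?_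
  · refine (Subgroup.closure_le _).2 ?_
    rintro _ ⟨r, hr, t, rfl⟩
    rw [SetLike.mem_coe, X, dif_pos (show r < 8 from hr)]
    exact siegel_mem_siegelGroup _ _
  · intro a ha
    by_cases hex : ∃ s, polar (qOdd 2 F) (bas s) a ≠ 0
    · exact Or.inr ⟨1, one_mem _, hex⟩
    simp only [not_exists, ne_eq, not_not, polar_bas5] at hex
    have e := eq_single (u := a) fun s => by simpa using hex s.swap
    by_cases h2 : (2 : F) = 0
    · refine Or.inl (orth_ext fun x => ?_)
      rw [refl_apply, orth_one_apply]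
      have : polar (qOdd 2 F) x a = 0 := by
        rw [e, show Pi.single (Sum.inl ()) (a (.inl ())) = a (.inl ()) • Pi.single (M := fun _ : Ix => F) (Sum.inl ()) 1 by
          funext i; rcases i with ⟨⟩ | i <;> simp, polar_smul_right, polar_x0 h2, smul_zero]
      simp [this]
    · have hw : polar (qOdd 2 F) (bas (.inl 0)) (Pi.single (.inl ()) 1) = 0 := by simp [polar_bas5]
      refine Or.inr ⟨_, hE (.inl 0) _ hw, .inr 0, ?_⟩
      have h0 : a (.inl ()) ≠ 0 := fun h => ha (by rw [e, q_single0, h]; ring)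
      show polar (qOdd 2 F) (bas (.inr 0)) _ ≠ 0
      rw [siegel_apply, polar_bas5]
      have ha1 : polar (qOdd 2 F) a (bas (.inl 0)) = 0 := by
        rw [polar_comm, polar_bas5]; exact hex _
      have hz : ∀ s : Hy, a (.inr s) = 0 := fun s => by simpa using hex s.swap
      simp [ha1, polar_single, pairVal, opIx, bas, h0, h2, hz]
  · by_cases h2 : (2 : F) = 0
    · exact isGen_char_two h2
    · exact isGen_qOdd h2 2

theorem iso (hF : ∃ a : F, a ≠ 0 ∧ a ≠ 1) :
    Nonempty (↥(chevB2.group F) ≃* Cfsg.POmega F (Cfsg.quadFormOdd 2 F)) := by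
  obtain ⟨A, h⟩ := CfsgLib.Chevalley.exists_full (D := chevB2) (by simp)
  haveI := (CfsgLib.Chevalley.simpleB2 (F := F) hF).1
  refine equiv_pomega h (qOdd 2 F) (qOdd_apply 2) stRel (fun r hr => ?_) gen_le
    (a := 4) (b := 5) (by decide) (by decide) X_noncomm
  have := killB2
  simp only [List.all_eq_true, List.mem_range, Bool.or_eq_true] at this
  exact (this r hr).imp id fun h => ⟨h, hF⟩

end CfsgLib.ChevOrtho.B2
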