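import Cfsg.Agent.Lib.ChevOrtho.B2Rep
import Cfsg.Agent.Lib.ChevOrtho.Frame

/-!
Reflections and Siegel transformations generate the isometry group of `x₀² + x₁ y₁ + x₂ y₂` over every field.
-/

set_option autoImplicit false
set_option linter.unusedSimpArgs false

namespace CfsgLib.ChevOrtho.B2

open CfsgLib.ClassicalForms QuadraticMap

variable {F : Type*} [Field F]

theorem polar_bas_bas (s t : Hy) : polar (qOdd 2 F) (bas s) (bas t) = if s.swap = t then 1 else 0 := by
  rw [polar_bas5, bas, Pi.single_apply]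
  exact if_congr Sum.inr_injective.eq_iff rfl rfl

/-- the hyperbolic part of the standard basis -/
noncomputable def frame (F : Type*) [Field F] : Frame (qOdd 2 F) Hy where
  e := bas
  op := Sum.swap
  op_op s := Sum.swap_swap s
  sing := q_bas
  pair s := by rw [polar_bas_bas, if_pos rfl]
  orth s t h := by rw [polar_bas_bas, if_neg (Ne.symm h)]
  other := by decide

/-- a vector with no hyperbolic coordinates -/
theorem eq_single {u : Ix → F} (h : ∀ s, u (.inr s) = 0) : u = Pi.single (.inl ()) (u (.inl ())) := by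
  funext i
  rcases i with ⟨⟩ | s
  · simp
  · simp [h s]

theorem q_single0 (c : F) : qOdd 2 F (Pi.single (.inl ()) c) = c ^ 2 := by
  simp [qOdd_apply, Cfsg.quadFormOdd]

theorem exists_polar_ne {u : Ix → F} (hu : u ≠ 0) (hQ : qOdd 2 F u = 0) :
    ∃ s, polar (qOdd 2 F) (bas s) u ≠ 0 := by
  by_contra hcon
  simp only [not_exists, ne_eq, not_not, polar_bas5] at hcon
  have h := eq_single (u := u) fun s => by simpa using hcon s.swap
  rw [h, q_single0] at hQ
  exact hu (by rw [h, (pow_eq_zero_iff two_ne_zero).1 hQ, Pi.single_zero])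

theorem bas_ne_zero (s : Hy) : bas (F := F) s ≠ 0 := fun e => by
  simpa [bas] using congrFun e (.inr s)

theorem hy_cases : ∀ s : Hy, s = .inl 0 ∨ s = .inl 1 ∨ s = .inr 0 ∨ s = .inr 1 := by decide

theorem polar_x0 (h2 : (2 : F) = 0) (x : Ix → F) : polar (qOdd 2 F) x (Pi.single (.inl ()) 1) = 0 := by
  rw [polar_single]
  simp [pairVal, h2]

/-- one reflection, fixing everything orthogonal to both vectors -/
theorem refl_step {u w : Ix → F} (hu : qOdd 2 F u = 0) (hw : qOdd 2 F w = 0)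
    (h : polar (qOdd 2 F) u w ≠ 0) :
    ∃ g ∈ reflGroup (qOdd 2 F) ⊔ siegelGroup (qOdd 2 F), (g : (Ix → F) ≃ₗ[F] (Ix → F)) u = w ∧
      ∀ x, polar (qOdd 2 F) u x = 0 → polar (qOdd 2 F) w x = 0 → (g : (Ix → F) ≃ₗ[F] (Ix → F)) x = x := by
  have hne : qOdd 2 F (u - w) ≠ 0 := by
    rw [map_sub_eq, hu, hw, add_zero, zero_sub]; exact neg_ne_zero.2 h
  refine ⟨_, Subgroup.mem_sup_left (refl_mem_reflGroup _ hne), refl_sub_apply (hu.trans hw.symm) hne, fun x h1 h2 => ?_⟩
  refine refl_fix hne ?_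
  rw [polar_comm, polar_sub_left, h1, h2, sub_zero]

theorem isGen_char_two (h2 : (2 : F) = 0) : IsGen (qOdd 2 F) := by
  set G := reflGroup (qOdd 2 F) ⊔ siegelGroup (qOdd 2 F)
  refine eq_top_iff.2 fun g₀ _ => ?_
  -- reduce step by step, multiplying on the left by elements of `G`
  suffices key : ∀ g : orth (qOdd 2 F), g ∈ G from key g₀
  have two_steps : ∀ {u w z : Ix → F}, qOdd 2 F u = 0 → qOdd 2 F w = 0 → qOdd 2 F z = 0 →
      polar (qOdd 2 F) u z ≠ 0 → polar (qOdd 2 F) z w ≠ 0 →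
      ∃ g ∈ G, (g : (Ix → F) ≃ₗ[F] (Ix → F)) u = w ∧ ∀ x, polar (qOdd 2 F) u x = 0 → polar (qOdd 2 F) z x = 0 →
        polar (qOdd 2 F) w x = 0 → (g : (Ix → F) ≃ₗ[F] (Ix → F)) x = x := by
    intro u w z hu hw hz h1 h3
    obtain ⟨g, hg, e, f⟩ := refl_step hu hz h1
    obtain ⟨k, hk, e', f'⟩ := refl_step hz hw h3
    exact ⟨k * g, mul_mem hk hg, by rw [orth_mul_apply, e, e'], fun x a b c => by
      rw [orth_mul_apply, f x a b, f' x b c]⟩
  -- fixing the last four basis vectors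
  have step4 : ∀ g : orth (qOdd 2 F), (∀ s, (g : (Ix → F) ≃ₗ[F] (Ix → F)) (bas s) = bas s) → g ∈ G := by
    intro g hg
    have hx : (g : (Ix → F) ≃ₗ[F] (Ix → F)) (Pi.single (.inl ()) 1) = Pi.single (.inl ()) 1 := by
      set v := (g : (Ix → F) ≃ₗ[F] (Ix → F)) (Pi.single (.inl ()) 1)
      have hv : ∀ s : Hy, v (.inr s) = 0 := fun s => by
        have := polar_apply g (bas s.swap) (Pi.single (.inl ()) 1)
        rw [hg, polar_bas5, polar_bas5, Sum.swap_swap] at this
        simpa using this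
      have e := eq_single hv
      have hq : qOdd 2 F v = 1 := by rw [show qOdd 2 F v = _ from orth_apply g _, q_single0, one_pow]
      rw [e, q_single0] at hq
      have h0 : (v (.inl ()) - 1) * (v (.inl ()) - 1) = 0 := by linear_combination hq + (1 - v (.inl ())) * h2
      rw [e, sub_eq_zero.1 (mul_self_eq_zero.1 h0)]
    have : g = 1 := Subtype.ext (LinearEquiv.toLinearMap_injective (LinearMap.pi_ext' fun i => LinearMap.ext_ring (by
      rcases i with ⟨⟩ | s
      · simpa using hx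
      · simpa [bas] using hg s)))
    rw [this]; exact one_mem _
  -- fixing `e₀`, `f₀` and `e₁`
  have step3 : ∀ g : orth (qOdd 2 F), (g : (Ix → F) ≃ₗ[F] (Ix → F)) (bas (.inl 0)) = bas (.inl 0) →
      (g : (Ix → F) ≃ₗ[F] (Ix → F)) (bas (.inr 0)) = bas (.inr 0) →
      (g : (Ix → F) ≃ₗ[F] (Ix → F)) (bas (.inl 1)) = bas (.inl 1) → g ∈ G := by
    intro g a b c
    set v := (g : (Ix → F) ≃ₗ[F] (Ix → F)) (bas (.inr 1)) with hv
    have hp : polar (qOdd 2 F) (bas (.inl 1)) v = 1 := by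
      rw [← c, hv, polar_apply, polar_bas_bas]; simp
    obtain ⟨hw, e⟩ := siegel_sub_apply (q_bas (F := F) (.inl 1)) (show qOdd 2 F v = 0 by rw [hv, orth_apply, q_bas])
      (q_bas (.inr 1)) hp (by rw [polar_bas_bas]; simp)
    have hk : siegel (qOdd 2 F) (bas (.inl 1)) (bas (.inr 1) - v) (q_bas _) hw * g ∈ G := by
      refine step4 _ fun s => ?_
      rw [orth_mul_apply]
      have hfix : ∀ x, polar (qOdd 2 F) x (bas (.inl 1)) = 0 → polar (qOdd 2 F) x (bas (.inr 1) - v) = 0 →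
          (siegel (qOdd 2 F) (bas (.inl 1)) (bas (.inr 1) - v) (q_bas _) hw : (Ix → F) ≃ₗ[F] (Ix → F)) x = x :=
        fun x h h' => by simp [siegel_apply, h, h']
      rcases hy_cases s with rfl | rfl | rfl | rfl
      · show _ = bas (.inl 0)
        rw [a]
        refine hfix _ (by rw [polar_bas_bas]; simp) ?_
        rw [polar_sub_right, polar_bas_bas, ← a, hv, polar_apply, polar_bas_bas]; simp
      · show _ = bas (.inl 1)
        rw [c]
        refine hfix _ (by rw [polar_bas_bas]; simp) ?_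
        rw [polar_sub_right, polar_bas_bas, hp]; simp
      · show _ = bas (.inr 0)
        rw [b]
        refine hfix _ (by rw [polar_bas_bas]; simp) ?_
        rw [polar_sub_right, polar_bas_bas, ← b, hv, polar_apply, polar_bas_bas]; simp
      · exact e
    exact (Subgroup.mul_mem_cancel_left G (Subgroup.mem_sup_right (siegel_mem_siegelGroup _ _))).1 hk
  -- fixing `e₀` and `f₀`
  have step2 : ∀ g : orth (qOdd 2 F), (g : (Ix → F) ≃ₗ[F] (Ix → F)) (bas (.inl 0)) = bas (.inl 0) →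
      (g : (Ix → F) ≃ₗ[F] (Ix → F)) (bas (.inr 0)) = bas (.inr 0) → g ∈ G := by
    intro g a b
    set u := (g : (Ix → F) ≃ₗ[F] (Ix → F)) (bas (.inl 1)) with hu
    have hQu : qOdd 2 F u = 0 := by rw [hu, orth_apply, q_bas]
    have p0 : polar (qOdd 2 F) u (bas (.inl 0)) = 0 := by rw [← a, hu, polar_apply, polar_bas_bas]; simp
    have q0 : polar (qOdd 2 F) u (bas (.inr 0)) = 0 := by rw [← b, hu, polar_apply, polar_bas_bas]; simp
    have fin : ∀ k ∈ G, (k : (Ix → F) ≃ₗ[F] (Ix → F)) u = bas (.inl 1) →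
        (k : (Ix → F) ≃ₗ[F] (Ix → F)) (bas (.inl 0)) = bas (.inl 0) →
        (k : (Ix → F) ≃ₗ[F] (Ix → F)) (bas (.inr 0)) = bas (.inr 0) → g ∈ G := fun k hk e e0 e1 =>
      (Subgroup.mul_mem_cancel_left G hk).1 (step3 _ (by rw [orth_mul_apply, a, e0])
        (by rw [orth_mul_apply, b, e1]) (by rw [orth_mul_apply, ← hu, e]))
    by_cases h : polar (qOdd 2 F) u (bas (.inl 1)) = 0
    · have h' : polar (qOdd 2 F) u (bas (.inr 1)) ≠ 0 := fun h' => by
        obtain ⟨s, hs⟩ := exists_polar_ne (u := u)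
          (by rw [hu]; exact (LinearEquiv.map_ne_zero_iff _).2 (bas_ne_zero _)) hQu
        rw [polar_comm] at hs
        rcases hy_cases s with rfl | rfl | rfl | rfl <;> exact hs (by assumption)
      obtain ⟨k, hk, e, f⟩ := two_steps hQu (q_bas (F := F) (.inl 1)) (q_bas (.inr 1)) h'
        (by rw [polar_bas_bas]; simp)
      exact fin k hk e (f _ p0 (by rw [polar_bas_bas]; simp) (by rw [polar_bas_bas]; simp))
        (f _ q0 (by rw [polar_bas_bas]; simp) (by rw [polar_bas_bas]; simp))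
    · obtain ⟨k, hk, e, f⟩ := refl_step hQu (q_bas (F := F) (.inl 1)) h
      exact fin k hk e (f _ p0 (by rw [polar_bas_bas]; simp)) (f _ q0 (by rw [polar_bas_bas]; simp))
  -- fixing `e₀`
  have step1 : ∀ g : orth (qOdd 2 F), (g : (Ix → F) ≃ₗ[F] (Ix → F)) (bas (.inl 0)) = bas (.inl 0) → g ∈ G := by
    intro g a
    set v := (g : (Ix → F) ≃ₗ[F] (Ix → F)) (bas (.inr 0)) with hv
    obtain ⟨hw, e⟩ := siegel_sub_apply (q_bas (F := F) (.inl 0)) (show qOdd 2 F v = 0 by rw [hv, orth_apply, q_bas])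
      (q_bas (.inr 0)) (show polar (qOdd 2 F) (bas (.inl 0)) v = 1 by
        rw [← a, hv, polar_apply, polar_bas_bas]; simp) (by rw [polar_bas_bas]; simp)
    refine (Subgroup.mul_mem_cancel_left G (Subgroup.mem_sup_right (siegel_mem_siegelGroup (q_bas _) hw))).1
      (step2 _ ?_ (by rw [orth_mul_apply]; exact e))
    rw [orth_mul_apply, a]
    have h0 : polar (qOdd 2 F) (bas (.inl 0)) (bas (.inr 0) - v) = 0 := hw
    simp [siegel_apply, h0, polar_bas_bas, q_bas]
  intro g
  set u := (g : (Ix → F) ≃ₗ[F] (Ix → F)) (bas (.inl 0)) with hu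
  have hQu : qOdd 2 F u = 0 := by rw [hu, orth_apply, q_bas]
  have fin : ∀ k ∈ G, (k : (Ix → F) ≃ₗ[F] (Ix → F)) u = bas (.inl 0) → g ∈ G := fun k hk e =>
    (Subgroup.mul_mem_cancel_left G hk).1 (step1 _ (by rw [orth_mul_apply, ← hu, e]))
  by_cases h : polar (qOdd 2 F) u (bas (.inl 0)) = 0
  swap
  · obtain ⟨k, hk, e, -⟩ := refl_step hQu (q_bas (F := F) (.inl 0)) h
    exact fin k hk e
  obtain ⟨s, hs⟩ := exists_polar_ne (u := u)
    (by rw [hu]; exact (LinearEquiv.map_ne_zero_iff _).2 (bas_ne_zero _)) hQu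
  rw [polar_comm] at hs
  by_cases hf : polar (qOdd 2 F) u (bas (.inr 0)) = 0
  swap
  · obtain ⟨k, hk, e, -⟩ := two_steps hQu (q_bas (F := F) (.inl 0)) (q_bas (.inr 0)) hf (by rw [polar_bas_bas]; simp)
    exact fin k hk e
  have hs0 : s ≠ .inl 0 := fun e => hs (e ▸ h)
  have hs1 : s ≠ .inr 0 := fun e => hs (e ▸ hf)
  have hz : qOdd 2 F (bas (.inr 0) + bas s) = 0 := by
    rw [QuadraticMap.map_add ⇑(qOdd 2 F), q_bas, q_bas, polar_bas_bas, if_neg]
    · simp
    · simpa using hs0.symm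
  obtain ⟨k, hk, e, -⟩ := two_steps hQu (q_bas (F := F) (.inl 0)) hz (by rwa [polar_add_right, hf, zero_add])
    (by rw [polar_add_left, polar_bas_bas, polar_bas_bas, if_pos (show Sum.swap (Sum.inr 0 : Hy) = .inl 0 from rfl), if_neg (fun e => hs1 (by
      rw [← Sum.swap_swap s, e]; rfl))]; simp)
  exact fin k hk e

end CfsgLib.ChevOrtho.B2
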