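import Cfsg.Prelude.Def_ChevB2
import Cfsg.Agent.Lib.Chevalley.Poly
import Cfsg.Agent.Lib.ChevOrtho.Matrices
import Cfsg.Agent.Lib.SteinbergPres.Relations

/-!
The Siegel transformations of the standard form of dimension five satisfy Steinberg's relations of type B₂:
identities between matrices with polynomial entries, checked on integer coefficient lists.
-/

set_option autoImplicit false
set_option linter.unusedSimpArgs false

namespace CfsgLib.ChevOrtho.B2

open Cfsg.Lie CfsgLib.ClassicalForms CfsgLib.SteinbergPres QuadraticMap CfsgLib.Chevalley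

abbrev Hy : Type := Fin 2 ⊕ Fin 2
abbrev Ix : Type := Unit ⊕ Hy

/-- numbering of the coordinates -/
def code : Ix ≃ Fin 5 where
  toFun := Sum.elim (fun _ => 0) (Sum.elim (fun i => ⟨1 + i.val, by omega⟩) (fun i => ⟨3 + i.val, by omega⟩))
  invFun k := ![Sum.inl (), Sum.inr (Sum.inl 0), Sum.inr (Sum.inl 1), Sum.inr (Sum.inr 0), Sum.inr (Sum.inr 1)] k
  left_inv := by decide
  right_inv := by decide

/-- `(u, w, σ)`: the root element is `x ↦ siegel(e_u, σ x e_w)` -/
def tab : List (Hy × Ix × ℤ) :=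
  [(.inr 0, .inr (.inr 1), 1), (.inr 0, .inl (), 1), (.inr 1, .inl (), 1), (.inr 0, .inr (.inl 1), 1),
    (.inl 0, .inr (.inr 1), -1), (.inl 1, .inl (), -1), (.inl 0, .inl (), -1), (.inl 0, .inr (.inl 1), -1)]

def fst (r : ℕ) : Hy := (tab.getD r (.inl 0, .inl (), 0)).1
def snd (r : ℕ) : Ix := (tab.getD r (.inl 0, .inl (), 0)).2.1
def sgn (r : ℕ) : ℤ := (tab.getD r (.inl 0, .inl (), 0)).2.2

/-- the coordinate paired with a coordinate, and the value of the pairing -/
def opIx : Ix → Ix := Sum.map id Sum.swap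
def pairVal : Ix → ℤ := Sum.elim (fun _ => 2) (fun _ => 1)

def e1List (r : ℕ) : Sparse.SMat :=
  [((code (snd r) : ℕ), (code (opIx (.inr (fst r))) : ℕ), sgn r),
    ((code (.inr (fst r)) : ℕ), (code (opIx (snd r)) : ℕ), -sgn r * pairVal (snd r))]

def e2List (r : ℕ) : Sparse.SMat :=
  if snd r = .inl () then [((code (.inr (fst r)) : ℕ), (code (opIx (.inr (fst r))) : ℕ), -1)] else []

def oneP : PMat := (List.range 5).map fun k => (0, 0, k, k, (1 : ℤ))

/-- the root element at `c t^a u^b` -/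
def rootP (q : ℕ × ℤ × ℕ × ℕ) : PMat :=
  oneP ++ liftP q.2.1 q.2.2.1 q.2.2.2 (e1List q.1) ++ liftP (q.2.1 ^ 2) (2 * q.2.2.1) (2 * q.2.2.2) (e2List q.1)

def wordP5 (w : List (ℕ × ℤ × ℕ × ℕ)) : PMat := w.foldr (fun q L => mulP (rootP q) L) oneP

/-- divide out `t u` -/
def redP (L : PMat) : PMat := L.map fun e => (e.1 - min e.1 e.2.1, e.2.1 - min e.1 e.2.1, e.2.2)

def wts : List (List ℤ) :=
  [[0, -1, -1, 1, 1], [0, -2, 0, 2, 0], [0, 0, -2, 0, 2], [0, -1, 1, 1, -1],
    [0, 1, -1, -1, 1], [0, 0, 2, 0, -2], [0, 2, 0, -2, 0], [0, 1, 1, -1, -1]]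

def wt (r k : ℕ) : ℤ := (wts.getD r []).getD k 0

def diagP (r : ℕ) : PMat := (List.range 5).map fun k => ((wt r k).toNat, (-wt r k).toNat, k, k, (1 : ℤ))

def hWordS (r : ℕ) : List (ℕ × ℤ × ℕ × ℕ) :=
  [(r, 1, 1, 0), (chevB2.neg r, -1, 0, 1), (r, 1, 1, 0), (r, -1, 0, 0), (chevB2.neg r, 1, 0, 0), (r, -1, 0, 0)]

theorem comm_check : ∀ r < 8, ∀ s < 8, s ≠ r → s ≠ chevB2.neg r →
    eqPB 5 (wordP5 [(s, -1, 0, 1), (r, -1, 1, 0), (s, 1, 0, 1), (r, 1, 1, 0)])
      (wordP5 ((chevB2.commTerms r s).map fun c => (c.1, c.2.1 * (-1) ^ c.2.2.1, c.2.2.1, c.2.2.2))) = true := by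
  decide +kernel

theorem h_check : ∀ r < 8, eqPB 5 (redP (wordP5 (hWordS r))) (diagP r) = true := by decide +kernel

theorem col_lt : ∀ r : ℕ, r < 8 → (∀ e ∈ e1List r, e.2.1 < 5) ∧ ∀ e ∈ e2List r, e.2.1 < 5 := by decide +kernel

theorem neg_lt : ∀ r < 8, chevB2.neg r < 8 := by decide +kernel

theorem lt_commTerms : ∀ r < 8, ∀ s < 8, ∀ c ∈ chevB2.commTerms r s, c.1 < 8 := by decide +kernel

theorem row_ok : ∀ r < 8, snd r ≠ .inr (fst r).swap := by decide +kernel

variable {F : Type*} [Field F]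

noncomputable def bas (s : Hy) : Ix → F := Pi.single (.inr s) 1

theorem polar_bas5 (s : Hy) (x : Ix → F) : polar (qOdd 2 F) (bas s) x = x (.inr s.swap) := by
  rw [polar, qOdd_apply, qOdd_apply, qOdd_apply]
  simp only [Cfsg.quadFormOdd, Fin.sum_univ_two, Pi.add_apply]
  rcases s with k | k <;> fin_cases k <;> simp [bas] <;> ring

theorem q_bas (s : Hy) : qOdd 2 F (bas s) = 0 := by
  rw [qOdd_apply, Cfsg.quadFormOdd, Fin.sum_univ_two]
  rcases s with k | k <;> fin_cases k <;> simp [bas]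

theorem polar_single (i : Ix) (x : Ix → F) :
    polar (qOdd 2 F) x (Pi.single i 1) = (pairVal i : F) * x (opIx i) := by
  rcases i with ⟨⟩ | s
  · rw [polar, qOdd_apply, qOdd_apply, qOdd_apply]
    simp [Cfsg.quadFormOdd, pairVal, opIx]
    ring
  · rw [polar_comm, ← bas, polar_bas5]
    simp [pairVal, opIx]

theorem q_single (i : Ix) : qOdd 2 F (Pi.single i 1) = if i = .inl () then 1 else 0 := by
  rcases i with ⟨⟩ | s
  · simp [qOdd_apply, Cfsg.quadFormOdd]
  · rw [← bas, q_bas, if_neg (by simp)]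

theorem polar_snd {r : ℕ} (hr : r < 8) (c : F) :
    polar (qOdd 2 F) (bas (fst r)) (c • Pi.single (snd r) 1) = 0 := by
  rw [polar_smul_right, polar_bas5, Pi.single_eq_of_ne (Ne.symm (row_ok r hr)), smul_zero]

/-- the image of the root element -/
noncomputable def X (r : ℕ) (t : F) : orth (qOdd 2 F) :=
  if hr : r < 8 then siegel (qOdd 2 F) (bas (fst r)) ((((sgn r : ℤ) : F) * t) • Pi.single (snd r) 1) (q_bas _)
    (polar_snd hr _) else 1

theorem sgn_sq : ∀ r < 8, sgn r * sgn r = 1 := by decide +kernel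

theorem X_add {r : ℕ} (hr : r < 8) (t u : F) : X r t * X r u = X r (t + u) := by
  simp only [X, dif_pos hr]
  rw [siegel_mul]
  exact siegel_congr rfl (by rw [← add_smul, mul_add]) _ _

theorem X_zero {r : ℕ} (hr : r < 8) : X (F := F) r 0 = 1 := by
  have := X_add (F := F) hr 0 0
  rw [add_zero] at this
  exact mul_eq_left.1 this

theorem X_inv {r : ℕ} (hr : r < 8) (t : F) : (X r t)⁻¹ = X r (-t) :=
  inv_eq_of_mul_eq_one_right (by rw [X_add hr, add_neg_cancel, X_zero hr])

theorem entries : ∀ r < 8, ∀ i j : Ix,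
    Sparse.entry (e1List r) (code i) (code j) =
      sgn r * ((if j = opIx (.inr (fst r)) then if i = snd r then 1 else 0 else 0)
        - (if j = opIx (snd r) then if i = .inr (fst r) then pairVal (snd r) else 0 else 0)) ∧
    Sparse.entry (e2List r) (code i) (code j) =
      - (sgn r * sgn r * if snd r = .inl () then if j = opIx (.inr (fst r)) then if i = .inr (fst r) then 1 else 0 else 0 else 0) := by
  decide +kernel

theorem mat_X {r : ℕ} (hr : r < 8) (t u : F) (c : ℤ) (a b : ℕ) (i j : Fin 5) :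
    (toFinMat (qOdd 2 F) code (X r ((c : F) * t ^ a * u ^ b)) : Matrix (Fin 5) (Fin 5) F) i j
      = pEntry t u (rootP (r, c, a, b)) i j := by
  rw [rootP, pEntry_append, pEntry_append, pEntry_liftP, pEntry_liftP, oneP, pEntry_one, toFinMat_apply, X,
    dif_pos hr, siegel_apply]
  obtain ⟨i, rfl⟩ := code.surjective i
  obtain ⟨j, rfl⟩ := code.surjective j
  rw [(entries r hr i j).1, (entries r hr i j).2]
  have hp : ∀ k : Ix, polar (qOdd 2 F) (Pi.single j 1) (Pi.single k 1) =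
      if j = opIx k then (pairVal k : F) else 0 := fun k => by
    rw [polar_single, Pi.single_apply]
    split_ifs with h1 h2 h2 <;> simp_all
  simp only [Equiv.symm_apply_apply, Pi.add_apply, Pi.sub_apply, Pi.smul_apply, smul_eq_mul,
    polar_smul_right, hp, bas, QuadraticMap.map_smul, q_single, Pi.single_apply, Fin.val_inj,
    code.injective.eq_iff, Fin.is_lt, and_true]
  simp only [show pairVal (.inr (fst r)) = 1 from rfl, Int.cast_one, Int.cast_mul, Int.cast_sub, Int.cast_neg]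
  split_ifs <;> push_cast <;> ring1

theorem rootP_col (q : ℕ × ℤ × ℕ × ℕ) (hq : q.1 < 8) : ∀ e ∈ rootP q, e.2.2.2.1 < 5 := by
  intro e he
  simp only [rootP, oneP, liftP, List.mem_append, List.mem_map, List.mem_range] at he
  rcases he with (⟨k, hk, rfl⟩ | ⟨x, hx, rfl⟩) | ⟨x, hx, rfl⟩
  · exact hk
  · exact (col_lt _ hq).1 x hx
  · exact (col_lt _ hq).2 x hx

theorem mat_word (t u : F) (w : List (ℕ × ℤ × ℕ × ℕ)) (hw : ∀ q ∈ w, q.1 < 8) (i j : Fin 5) :
    (toFinMat (qOdd 2 F) code ((w.map fun q => X q.1 ((q.2.1 : F) * t ^ q.2.2.1 * u ^ q.2.2.2)).prod) :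
      Matrix (Fin 5) (Fin 5) F) i j = pEntry t u (wordP5 w) i j := by
  induction w generalizing i j with
  | nil =>
    simp only [wordP5, List.map_nil, List.prod_nil, map_one, Units.val_one, List.foldr_nil, oneP, pEntry_one,
      Fin.val_inj, Fin.is_lt, and_true, Matrix.one_apply]
  | cons q w ih =>
    have hq := hw q (List.mem_cons_self ..)
    show _ = pEntry t u (mulP (rootP q) (wordP5 w)) (Equiv.refl (Fin 5) i : ℕ) (Equiv.refl (Fin 5) j : ℕ)
    rw [pEntry_mulP t u (Equiv.refl _) _ _ (rootP_col q hq), List.map_cons, List.prod_cons, map_mul,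
      Units.val_mul, Matrix.mul_apply]
    exact Finset.sum_congr rfl fun k _ => by
      rw [mat_X hq t u q.2.1 q.2.2.1 q.2.2.2 i k, ih (fun x hx => hw x (List.mem_cons_of_mem _ hx)) k j]
      rfl

theorem pEntry_redP {t u : F} (htu : t * u = 1) (L : PMat) (i j : ℕ) :
    pEntry t u (redP L) i j = pEntry t u L i j := by
  induction L with
  | nil => rfl
  | cons e L ih =>
    rw [show redP (e :: L) = (e.1 - min e.1 e.2.1, e.2.1 - min e.1 e.2.1, e.2.2) :: redP L from rfl, pEntry_cons,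
      pEntry_cons, ih]
    congr 1
    have hpow : t ^ e.1 * u ^ e.2.1 = t ^ (e.1 - min e.1 e.2.1) * u ^ (e.2.1 - min e.1 e.2.1) := by
      obtain ⟨x, hx⟩ := Nat.exists_eq_add_of_le (min_le_left e.1 e.2.1)
      obtain ⟨y, hy⟩ := Nat.exists_eq_add_of_le (min_le_right e.1 e.2.1)
      generalize min e.1 e.2.1 = m at hx hy ⊢
      rw [hx, hy, pow_add, pow_add, Nat.add_sub_cancel_left, Nat.add_sub_cancel_left, mul_mul_mul_comm,
        ← mul_pow, htu, one_pow, one_mul]
    simp only [mul_assoc, hpow]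

theorem mat_h {r : ℕ} (hr : r < 8) {t : F} (ht : t ≠ 0) (i j : Fin 5) :
    (toFinMat (qOdd 2 F) code ((chevB2.hWord r t).map fun p => X p.1 p.2).prod :
      Matrix (Fin 5) (Fin 5) F) i j
      = if i = j then t ^ (wt r i).toNat * t⁻¹ ^ (-wt r i).toNat else 0 := by
  have hw : ∀ q ∈ hWordS r, q.1 < 8 := by
    simp [hWordS, hr, neg_lt r hr]
  have e : ((chevB2.hWord r t).map fun p => X (F := F) p.1 p.2)
      = (hWordS r).map fun q => X q.1 ((q.2.1 : F) * t ^ q.2.2.1 * t⁻¹ ^ q.2.2.2) := by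
    simp [ChevalleyDatum.hWord, ChevalleyDatum.nWord, hWordS]
  rw [e, mat_word t t⁻¹ _ hw, ← pEntry_redP (mul_inv_cancel₀ ht),
    eqPB_sound t t⁻¹ (h_check r hr) i.isLt j.isLt, diagP]
  unfold pEntry
  simp only [List.range_succ, List.range_zero, List.nil_append, List.map_append, List.map_cons, List.map_nil,
    List.sum_append, List.sum_cons, List.sum_nil, add_zero, Int.cast_one, one_mul]
  fin_cases i <;> fin_cases j <;> simp

theorem stRel : StRel chevB2 F (X (F := F)) := by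
  refine ⟨fun r hr => X_add hr, fun r hr s hs h1 h2 t u => ?_, fun r hr t u ht hu => ?_⟩
  · have hr' : r < 8 := hr
    have hs' : s < 8 := hs
    refine toFinMat_injective (qOdd 2 F) code (Units.ext (Matrix.ext fun i j => ?_))
    have eL : (X s u)⁻¹ * (X r t)⁻¹ * X s u * X r t =
        (([(s, -1, 0, 1), (r, -1, 1, 0), (s, 1, 0, 1), (r, 1, 1, 0)] : List (ℕ × ℤ × ℕ × ℕ)).map
          fun q => X q.1 ((q.2.1 : F) * t ^ q.2.2.1 * u ^ q.2.2.2)).prod := by
      simp [X_inv hs', X_inv hr', mul_assoc]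
    have eR : ((chevB2.commWord F r s t u).map fun p => X p.1 p.2) =
        ((chevB2.commTerms r s).map fun c => (c.1, c.2.1 * (-1 : ℤ) ^ c.2.2.1, c.2.2.1, c.2.2.2)).map
          fun q => X q.1 ((q.2.1 : F) * t ^ q.2.2.1 * u ^ q.2.2.2) := by
      rw [ChevalleyDatum.commWord, List.map_map, List.map_map]
      refine List.map_congr_left fun c _ => ?_
      simp only [Function.comp_apply, Int.cast_mul, Int.cast_pow, Int.cast_neg, Int.cast_one]
      congr 1
      rw [neg_pow t]; ring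
    rw [eL, eR, mat_word t u _ (by simp [hr', hs']), mat_word t u _ (fun q hq => by
      obtain ⟨c, hc, rfl⟩ := List.mem_map.1 hq
      exact lt_commTerms r hr' s hs' c hc)]
    exact eqPB_sound t u (comm_check r hr' s hs' h1 h2) i.isLt j.isLt
  · refine toFinMat_injective (qOdd 2 F) code (Units.ext (Matrix.ext fun i j => ?_))
    rw [map_mul, Units.val_mul, Matrix.mul_apply, Finset.sum_eq_single i]
    · rw [mat_h hr ht, mat_h hr hu, mat_h hr (mul_ne_zero ht hu), if_pos rfl]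
      split_ifs with h
      · rw [mul_inv, mul_pow, mul_pow]; ring
      · rw [mul_zero]
    · intro k _ hk
      rw [mat_h hr ht, if_neg (Ne.symm hk), zero_mul]
    · simp

theorem X_noncomm : X (F := F) 4 1 * X 5 1 ≠ X 5 1 * X 4 1 := by
  intro e
  have h1 := mat_word (1 : F) 1 [(4, 1, 0, 0), (5, 1, 0, 0)] (by simp) (1 : Fin 5) (0 : Fin 5)
  have h2 := mat_word (1 : F) 1 [(5, 1, 0, 0), (4, 1, 0, 0)] (by simp) (1 : Fin 5) (0 : Fin 5)
  have h3 := mat_word (1 : F) 1 [(4, 1, 0, 0), (5, 1, 0, 0)] (by simp) (1 : Fin 5) (4 : Fin 5)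
  have h4 := mat_word (1 : F) 1 [(5, 1, 0, 0), (4, 1, 0, 0)] (by simp) (1 : Fin 5) (4 : Fin 5)
  simp only [List.map_cons, List.map_nil, List.prod_cons, List.prod_nil, mul_one, Int.cast_one, pow_zero, e] at h1 h2 h3 h4
  rw [h2] at h1
  rw [h4, show ((1 : Fin 5) : ℕ) = 1 from rfl, show ((4 : Fin 5) : ℕ) = 4 from rfl] at h3
  have key : (pEntry (1 : F) 1 (wordP5 [(4, 1, 0, 0), (5, 1, 0, 0)]) 1 4 : F) -
      pEntry (1 : F) 1 (wordP5 [(5, 1, 0, 0), (4, 1, 0, 0)]) 1 4 = ((-1 : ℤ) : F) := by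
    have hz : ∀ L i j, pEntry (1 : F) 1 L i j = ((pEntry (1 : ℤ) 1 L i j : ℤ) : F) := by
      intro L i j
      induction L with
      | nil => simp [pEntry]
      | cons e L ih => rw [pEntry_cons, pEntry_cons, ih]; split_ifs <;> simp
    rw [hz, hz, ← Int.cast_sub]
    congr 1
  rw [← h3] at key
  simp at key

end CfsgLib.ChevOrtho.B2
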